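import Cfsg.Agent.H35.Sections
import Cfsg.Agent.H76.UniqueInvolution
import Cfsg.Agent.H28.TwoRankOne
import Cfsg.Agent.H72.PCore
import Cfsg.Agent.H65.Twist.ReeStatements
import Cfsg.Prelude.Def_LieTwisted

/-!
Groups whose 2-subgroups have all elements of order at least four commuting admit no
quadratic action in odd characteristic: `PSL₂` in odd characteristic and the Ree groups.
-/

set_option autoImplicit false

namespace Cfsg.Agent.H55

open scoped commutatorElement

/-- Within every 2-subgroup, the elements of order at least four commute with each other. -/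
def BigTwoElementsCommute (Q : Type*) [Group Q] : Prop :=
  ∀ R : Subgroup Q, IsPGroup 2 R → ∀ x ∈ R, ∀ y ∈ R, x ^ 2 ≠ 1 → y ^ 2 ≠ 1 → x * y = y * x

/-- The property transfers along isomorphisms. -/
theorem bigTwoElementsCommute_of_equiv {Q Q' : Type*} [Group Q] [Group Q'] (e : Q ≃* Q')
    (h : BigTwoElementsCommute Q') : BigTwoElementsCommute Q := by
  intro R hR x hx y hy hx2 hy2
  apply e.injective
  rw [map_mul, map_mul]
  refine h (R.map e.toMonoidHom) (hR.map _) _ ⟨x, hx, rfl⟩ _ ⟨y, hy, rfl⟩ ?_ ?_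
  · rw [← map_pow]; exact fun hc => hx2 (e.injective (hc.trans e.map_one.symm))
  · rw [← map_pow]; exact fun hc => hy2 (e.injective (hc.trans e.map_one.symm))

/-- The square roots of one in `SL₂` are central in odd characteristic. -/
theorem sl2_sq_eq_one {F : Type*} [Field F] (h2 : (2 : F) ≠ 0)
    (M : Matrix.SpecialLinearGroup (Fin 2) F) (h : M ^ 2 = 1) :
    (M.1 = 1 ∨ M.1 = -1) := by
  have hd : M.1 0 0 * M.1 1 1 - M.1 0 1 * M.1 1 0 = 1 := by rw [← Matrix.det_fin_two]; exact M.2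
  have hm : M.1 * M.1 = 1 := by
    have := congrArg Subtype.val ((sq M).symm.trans h)
    exact this
  have e00 : M.1 0 0 * M.1 0 0 + M.1 0 1 * M.1 1 0 = 1 := by
    have := congrFun (congrFun hm 0) 0; simpa [Matrix.mul_apply] using this
  have e01 : M.1 0 0 * M.1 0 1 + M.1 0 1 * M.1 1 1 = 0 := by
    have := congrFun (congrFun hm 0) 1; simpa [Matrix.mul_apply] using this
  have e10 : M.1 1 0 * M.1 0 0 + M.1 1 1 * M.1 1 0 = 0 := by
    have := congrFun (congrFun hm 1) 0; simpa [Matrix.mul_apply] using this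
  have e11 : M.1 1 0 * M.1 0 1 + M.1 1 1 * M.1 1 1 = 1 := by
    have := congrFun (congrFun hm 1) 1; simpa [Matrix.mul_apply] using this
  have ht : (M.1 0 0 + M.1 1 1) * M.1 0 0 = 2 := by linear_combination e00 + hd
  have ht' : (M.1 0 0 + M.1 1 1) * M.1 1 1 = 2 := by linear_combination e11 + hd
  have htne : M.1 0 0 + M.1 1 1 ≠ 0 := fun h0 => h2 (by rw [← ht, h0, zero_mul])
  have hb : M.1 0 1 = 0 := by
    refine (mul_eq_zero.1 ?_).resolve_left htne
    linear_combination e01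
  have hc : M.1 1 0 = 0 := by
    refine (mul_eq_zero.1 ?_).resolve_left htne
    linear_combination e10
  have hda : M.1 1 1 = M.1 0 0 := mul_left_cancel₀ htne (ht'.trans ht.symm)
  have hsq : M.1 0 0 * M.1 0 0 = 1 := by rw [hb, zero_mul, add_zero] at e00; exact e00
  rcases mul_self_eq_one_iff.1 hsq with ha | ha
  · left; ext i j; fin_cases i <;> fin_cases j <;> simp [hb, hc, hda, ha]
  · right; ext i j; fin_cases i <;> fin_cases j <;> simp [hb, hc, hda, ha]

/-- `PSL₂` in odd characteristic has dihedral-like 2-subgroups. -/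
theorem bigTwoElementsCommute_psl_two (F : Type*) [Field F] [Fintype F]
    (hF : Odd (Fintype.card F)) :
    BigTwoElementsCommute (Matrix.ProjectiveSpecialLinearGroup (Fin 2) F) := by
  classical
  have h2 : (2 : F) ≠ 0 := Ring.two_ne_zero fun h =>
    (Nat.not_even_iff_odd.2 hF) (Nat.even_iff.2 (FiniteField.even_card_iff_char_two.1 h))
  intro R hR x hx y hy hx2 hy2
  set π := QuotientGroup.mk' (Subgroup.center (Matrix.SpecialLinearGroup (Fin 2) F)) with hπ
  have hcen : ∀ z ∈ Subgroup.center (Matrix.SpecialLinearGroup (Fin 2) F), z ^ 2 = 1 := by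
    intro z hz
    obtain ⟨r, hr, hrz⟩ := Matrix.SpecialLinearGroup.mem_center_iff.1 hz
    apply Subtype.ext
    rw [Matrix.SpecialLinearGroup.coe_pow, ← hrz, Matrix.SpecialLinearGroup.coe_one, ← map_pow]
    simp only [Fintype.card_fin] at hr
    rw [hr, map_one]
  have hker : IsPGroup 2 π.ker := by
    intro z
    refine ⟨1, Subtype.ext ?_⟩
    rw [Subgroup.coe_pow, pow_one, Subgroup.coe_one]
    exact hcen _ (by
      exact (QuotientGroup.ker_mk' _).le z.2)
  have hS : IsPGroup 2 (R.comap π) := hR.comap_of_ker_isPGroup π hker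
  obtain ⟨X, rfl⟩ := QuotientGroup.mk'_surjective _ x
  obtain ⟨Y, rfl⟩ := QuotientGroup.mk'_surjective _ y
  by_cases hab : IsMulCommutative (R.comap π)
  · have hc : X * Y = Y * X := congrArg Subtype.val
      (hab.is_comm.comm (⟨X, hx⟩ : R.comap π) ⟨Y, hy⟩)
    rw [← map_mul, ← map_mul, hc]
  have hneg : ∀ g : Matrix.SpecialLinearGroup (Fin 2) F, orderOf g = 2 → g.1 = -1 := by
    intro g hg
    refine (sl2_sq_eq_one h2 g (orderOf_dvd_iff_pow_eq_one.1 hg.dvd)).resolve_left fun h1 => ?_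
    have : g = 1 := Subtype.ext h1
    rw [this, orderOf_one] at hg
    exact absurd hg (by norm_num)
  have huniq : ∀ u v : R.comap π, orderOf u = 2 → orderOf v = 2 → u = v := by
    intro u v hu hv
    rw [← Subgroup.orderOf_coe] at hu hv
    exact Subtype.ext (Subtype.ext ((hneg _ hu).trans (hneg _ hv).symm))
  have hne : Nontrivial (R.comap π) := by
    refine ⟨⟨X, hx⟩, 1, fun h => hx2 ?_⟩
    rw [show X = 1 from congrArg Subtype.val h, map_one, one_pow]
  haveI := Fact.mk Nat.prime_two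
  obtain ⟨z, hz⟩ : ∃ z : R.comap π, orderOf z = 2 := by
    obtain ⟨n, hn, hn'⟩ := (IsPGroup.nontrivial_iff_card hS).1 hne
    exact exists_prime_orderOf_dvd_card' 2 (by rw [hn']; exact dvd_pow_self 2 hn.ne')
  obtain ⟨c, -, hc⟩ := H76.exists_cyclic_index_two_of_unique_involution hS hab
    ⟨z, hz, fun u hu => huniq u z hu hz⟩
  have hmem : ∀ u : R.comap π, π (u : Matrix.SpecialLinearGroup (Fin 2) F) ^ 2 ≠ 1 → u ∈ Subgroup.zpowers c := by
    intro u hu
    by_contra hn
    refine hu ?_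
    have h' := (hc u hn).2
    rw [← Subgroup.orderOf_coe, Subgroup.coe_pow] at h'
    rw [← map_pow]
    refine (QuotientGroup.eq_one_iff _).2 ?_
    refine Matrix.SpecialLinearGroup.mem_center_iff.2 ⟨-1, by simp, ?_⟩
    rw [map_neg, map_one, hneg _ h']
  obtain ⟨i, hi⟩ := hmem ⟨X, hx⟩ hx2
  obtain ⟨j, hj⟩ := hmem ⟨Y, hy⟩ hy2
  have hXY : X * Y = Y * X := by
    have h' : (⟨X, hx⟩ : R.comap π) * ⟨Y, hy⟩ = ⟨Y, hy⟩ * ⟨X, hx⟩ := by
      rw [← hi, ← hj]; exact (Commute.refl c).zpow_zpow i j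
    exact congrArg Subtype.val h'
  rw [← map_mul, ← map_mul, hXY]

/-- A simple group whose Sylow 2-subgroups have order at most eight. -/
theorem bigTwoElementsCommute_of_simple {Q : Type*} [Group Q] [Finite Q] [IsSimpleGroup Q]
    (hna : ¬ IsMulCommutative Q) (h16 : ¬ 16 ∣ Nat.card Q) : BigTwoElementsCommute Q := by
  haveI := Fact.mk Nat.prime_two
  intro R hR x hx y hy hx2 hy2
  by_contra hne
  obtain ⟨n, hn⟩ := hR.exists_card_eq
  have hn3 : n ≤ 3 := by
    by_contra hc
    push Not at hc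
    exact h16 (dvd_trans (pow_dvd_pow 2 hc) (hn ▸ R.card_subgroup_dvd_card))
  have hnotcyc : ∀ z : Q, z ∈ R → ¬ R ≤ Subgroup.zpowers z := by
    intro z hz hle
    obtain ⟨i, rfl⟩ := hle hx
    obtain ⟨j, rfl⟩ := hle hy
    exact hne ((Commute.refl z).zpow_zpow i j)
  have hcard : Nat.card R = 8 := by
    interval_cases n
    · exfalso
      have := Subgroup.card_eq_one.1 (hn.trans (pow_zero 2))
      rw [this, Subgroup.mem_bot] at hx
      exact hx2 (by rw [hx, one_pow])
    · exfalso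
      haveI : IsCyclic R := isCyclic_of_prime_card (p := 2) (by simpa using hn)
      obtain ⟨⟨g, hg⟩, hgen⟩ := IsCyclic.exists_zpow_surjective (G := R)
      refine hnotcyc g hg fun r hr => ?_
      obtain ⟨i, hi⟩ := hgen ⟨r, hr⟩
      exact ⟨i, congrArg Subtype.val hi⟩
    · exfalso
      have := IsPGroup.commutative_of_card_eq_prime_sq hn ⟨x, hx⟩ ⟨y, hy⟩
      exact hne (congrArg Subtype.val this)
    · simpa using hn
  have hord : ∀ z ∈ R, z ^ 2 ≠ 1 → orderOf z = 4 := by
    intro z hz hz2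
    have hdvd : orderOf z ∣ 2 ^ 3 := by
      have h8 : orderOf ((⟨z, hz⟩ : R) : Q) ∣ 8 := by
        rw [Subgroup.orderOf_coe, ← hcard]; exact orderOf_dvd_natCard _
      exact h8
    obtain ⟨k, hk, hkz⟩ := (Nat.dvd_prime_pow Nat.prime_two).1 hdvd
    interval_cases k
    · exact absurd (by rw [orderOf_eq_one_iff.1 hkz, one_pow]) hz2
    · exact absurd (by rw [← orderOf_dvd_iff_pow_eq_one, hkz]; norm_num) hz2
    · simpa using hkz
    · exfalso
      refine hnotcyc z hz ?_
      exact le_of_eq (Subgroup.eq_of_le_of_card_ge ((Subgroup.zpowers_le).2 hz)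
        (by rw [hcard, Nat.card_zpowers, hkz]; norm_num)).symm
  set C := Subgroup.zpowers x with hC
  have hCR : C ≤ R := Subgroup.zpowers_le.2 hx
  have hidx : (C.subgroupOf R).index = 2 := by
    have := Subgroup.card_mul_index (C.subgroupOf R)
    have h4 : Nat.card C = 4 := (Nat.card_zpowers x).trans (hord x hx hx2)
    rw [Nat.card_congr (Subgroup.subgroupOfEquivOfLe hCR).toEquiv, h4, hcard] at this
    omega
  have hyC : y ∉ C := fun hyc => hne (by
    obtain ⟨j, rfl⟩ := hyc; exact (Commute.refl x).zpow_right j)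
  haveI hCn : (C.subgroupOf R).Normal := Subgroup.normal_of_index_eq_two hidx
  have hmem : ∀ u ∈ R, ∀ v ∈ R, u ∉ C → v ∉ C → u * v ∈ C := by
    intro u hu v hv hu' hv'
    exact (Subgroup.mul_mem_iff_of_index_two hidx (a := ⟨u, hu⟩) (b := ⟨v, hv⟩)).2
      (iff_of_false (fun h => hu' h) (fun h => hv' h))
  have horx := hord x hx hx2
  have hCel : ∀ u ∈ C, u = 1 ∨ u = x ∨ u = x ^ 2 ∨ u = x⁻¹ := by
    rintro u ⟨i, rfl⟩
    have h4 : i % 4 = 0 ∨ i % 4 = 1 ∨ i % 4 = 2 ∨ i % 4 = 3 := by omega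
    have hx4 : x ^ (4 : ℤ) = 1 := by
      rw [show (4 : ℤ) = ((4 : ℕ) : ℤ) by rfl, zpow_natCast, ← horx, pow_orderOf_eq_one]
    have hmod : x ^ i = x ^ (i % 4) := by
      conv_lhs => rw [← Int.emod_add_mul_ediv i 4]
      rw [zpow_add, zpow_mul, hx4, one_zpow, mul_one]
    rcases h4 with h | h | h | h <;> simp only [hmod, h]
    · exact Or.inl (zpow_zero x)
    · exact Or.inr (Or.inl (zpow_one x))
    · exact Or.inr (Or.inr (Or.inl (zpow_two x ▸ (sq x).symm ▸ rfl)))
    · refine Or.inr (Or.inr (Or.inr ?_))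
      rw [show (3 : ℤ) = 4 + -1 by rfl, zpow_add, hx4, one_mul, zpow_neg_one]
  have hy2x : y ^ 2 = x ^ 2 := by
    have hy4 := hord y hy hy2
    have h44 : (y ^ 2) ^ 2 = 1 := by
      rw [← pow_mul, show 2 * 2 = 4 from rfl, ← hy4, pow_orderOf_eq_one]
    rcases hCel _ (sq y ▸ hmem y hy y hy hyC hyC) with h | h | h | h
    · exact absurd h hy2
    · exact absurd (h ▸ h44) hx2
    · exact h
    · rw [h, inv_pow, inv_eq_one] at h44; exact absurd h44 hx2
  have hyx : y * x * y⁻¹ = x⁻¹ := by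
    have hm : y * x * y⁻¹ ∈ C :=
      hCn.conj_mem ⟨x, hx⟩ (Subgroup.mem_zpowers x) ⟨y, hy⟩
    rcases hCel _ hm with h | h | h | h
    · rw [conj_eq_one_iff] at h; exact absurd (by rw [h, one_pow]) hx2
    · exact absurd (mul_inv_eq_iff_eq_mul.1 h).symm hne
    · have := congrArg (· ^ 2) h
      simp only [conj_pow, ← pow_mul, show 2 * 2 = 4 from rfl] at this
      rw [show x ^ 4 = 1 by rw [← horx, pow_orderOf_eq_one], conj_eq_one_iff] at this
      exact absurd this hx2
    · exact h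
  have hz2 : orderOf (x ^ 2) = 2 := by
    rw [orderOf_pow, horx]; rfl
  have huniq : ∀ u ∈ R, orderOf u = 2 → u = x ^ 2 := by
    intro u hu hu2
    have hu1 : u ^ 2 = 1 := hu2 ▸ pow_orderOf_eq_one u
    by_cases huC : u ∈ C
    · rcases hCel u huC with h | h | h | h
      · rw [h, orderOf_one] at hu2; exact absurd hu2 (by norm_num)
      · exact absurd (h ▸ hu1) hx2
      · exact h
      · rw [h, inv_pow, inv_eq_one] at hu1; exact absurd hu1 hx2
    · exfalso
      have hm := hmem u hu y hy huC hyC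
      obtain ⟨i, hi⟩ : ∃ i : ℤ, x ^ i = u * y := hm
      have hu' : u = x ^ i * y⁻¹ := by rw [hi, mul_inv_cancel_right]
      have hconj : y⁻¹ * x ^ i * y = (x ^ i)⁻¹ := by
        have hk : y * x ^ i * y⁻¹ = (x ^ i)⁻¹ := by
          rw [← conj_zpow, hyx, inv_zpow]
        calc y⁻¹ * x ^ i * y = (y⁻¹ * (y * x ^ i * y⁻¹) * y)⁻¹ := by rw [hk]; group
          _ = (x ^ i)⁻¹ := by group
      apply hy2
      rw [hu', sq, show x ^ i * y⁻¹ * (x ^ i * y⁻¹) = x ^ i * (y⁻¹ * x ^ i * y) * (y ^ 2)⁻¹ by group,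
        hconj, mul_inv_cancel, one_mul, inv_eq_one] at hu1
      exact hu1
  -- the Sylow 2-subgroup has a unique involution: impossible
  obtain ⟨P, hRP⟩ := hR.exists_le_sylow
  have hPR : (P : Subgroup Q) = R := by
    obtain ⟨k, hk⟩ := P.isPGroup'.exists_card_eq
    have hk3 : k ≤ 3 := by
      by_contra hc
      push Not at hc
      exact h16 (dvd_trans (pow_dvd_pow 2 hc) (hk ▸ Subgroup.card_subgroup_dvd_card _))
    exact (Subgroup.eq_of_le_of_card_ge hRP (by
      rw [hk, hcard]; exact Nat.pow_le_pow_right (by norm_num) hk3)).symm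
  have hcore : Cfsg.pPrimeCore 2 Q = ⊥ := by
    refine le_bot_iff.1 (sSup_le fun N ⟨hN, hco⟩ => ?_)
    rcases hN.eq_bot_or_eq_top with h | h
    · exact h.le
    · exfalso
      rw [h, Subgroup.card_top] at hco
      have h8 : (2 : ℕ) ∣ Nat.card Q :=
        dvd_trans (by norm_num [hcard]) R.card_subgroup_dvd_card
      exact absurd (Nat.eq_one_of_dvd_coprimes hco h8 dvd_rfl) (by norm_num)
  have hcen : x ^ 2 ∈ Subgroup.center Q := by
    refine Subgroup.mem_center_iff.2 fun g => ?_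
    have h := H28.central_mod_core_of_unique_involution P hz2 (hPR ▸ pow_mem hx 2)
      (fun u hu => huniq u (hPR ▸ hu)) g
    rw [hcore, Subgroup.mem_bot, mul_inv_eq_one, mul_inv_eq_iff_eq_mul] at h
    exact h.symm
  rcases (inferInstance : (Subgroup.center Q).Normal).eq_bot_or_eq_top with h | h
  · rw [h, Subgroup.mem_bot] at hcen; exact hx2 hcen
  · exact hna ⟨⟨fun a b => (Subgroup.mem_center_iff.1 (h ▸ Subgroup.mem_top b : b ∈ Subgroup.center Q) a)⟩⟩

/-- The Ree groups have abelian Sylow 2-subgroups of order eight. -/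
theorem bigTwoElementsCommute_ree {Q : Type*} [Group Q] (h : Cfsg.Lie.IsoRee Q) :
    BigTwoElementsCommute Q := by
  obtain ⟨K, _, _, m, hm, hK, ⟨e⟩⟩ := h
  refine bigTwoElementsCommute_of_equiv e ?_
  obtain ⟨hs, hna⟩ := H65.Twist.ree_simple hm hK
  haveI := hs
  refine bigTwoElementsCommute_of_simple hna ?_
  rw [H65.Twist.ree_card hK]
  have h8 : 3 ^ (2 * m + 1) % 16 = 3 ∨ 3 ^ (2 * m + 1) % 16 = 11 := by
    clear! K
    clear hm
    induction m with
    | zero => left; rfl
    | succ k ih =>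
      rw [show 2 * (k + 1) + 1 = 2 * k + 1 + 2 by ring, pow_add, Nat.mul_mod]
      rcases ih with h | h <;> rw [h] <;> decide
  have hq : 1 ≤ 3 ^ (2 * m + 1) := Nat.one_le_pow _ _ (by norm_num)
  generalize 3 ^ (2 * m + 1) = q at h8 hq
  intro hd
  obtain ⟨r, rfl | rfl⟩ : ∃ r, q = 16 * r + 3 ∨ q = 16 * r + 11 := ⟨q / 16, by omega⟩
  · rw [Nat.dvd_iff_mod_eq_zero, show 16 * r + 3 - 1 = 16 * r + 2 by omega, Nat.mul_mod,
      Nat.mul_mod ((16 * r + 3) ^ 3), Nat.add_mod ((16 * r + 3) ^ 3), Nat.pow_mod] at hd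
    simp [Nat.add_mod] at hd
  · rw [Nat.dvd_iff_mod_eq_zero, show 16 * r + 11 - 1 = 16 * r + 10 by omega, Nat.mul_mod,
      Nat.mul_mod ((16 * r + 11) ^ 3), Nat.add_mod ((16 * r + 11) ^ 3), Nat.pow_mod] at hd
    simp [Nat.add_mod] at hd

/-- A quaternion pair in `SL(2,p)`. -/
theorem exists_quaternion_pair {p : ℕ} [Fact p.Prime] (hp : p ≠ 2) :
    ∃ i j : Matrix.SpecialLinearGroup (Fin 2) (ZMod p),
      IsPGroup 2 ↥(Subgroup.zpowers i ⊔ Subgroup.zpowers j) ∧ i ^ 2 ≠ 1 ∧ j ^ 2 ≠ 1 ∧ i * j ≠ j * i := by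
  obtain ⟨a, b, hab⟩ := ZMod.sq_add_sq p (-1)
  have h2 : (2 : ZMod p) ≠ 0 := Ring.two_ne_zero (by rw [ZMod.ringChar_zmod_n]; exact hp)
  let i : Matrix.SpecialLinearGroup (Fin 2) (ZMod p) := ⟨!![0, 1; -1, 0], by simp [Matrix.det_fin_two]⟩
  let j : Matrix.SpecialLinearGroup (Fin 2) (ZMod p) := ⟨!![a, b; b, -a], by
    rw [Matrix.det_fin_two]; simp; linear_combination -hab⟩
  have hi2 : (i ^ 2).1 = -1 := by
    rw [sq, Matrix.SpecialLinearGroup.coe_mul]; ext u v; fin_cases u <;> fin_cases v <;> simp [i]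
  have hj2 : (j ^ 2).1 = -1 := by
    rw [sq, Matrix.SpecialLinearGroup.coe_mul]
    ext u v; fin_cases u <;> fin_cases v <;> simp [j] <;> first | linear_combination hab | ring
  have hneg : (-1 : Matrix (Fin 2) (Fin 2) (ZMod p)) ≠ 1 := fun h => by
    have := congrFun (congrFun h 0) 0
    simp at this
    exact h2 (by linear_combination (-1 : ZMod p) * this)
  have hne : ∀ M : Matrix.SpecialLinearGroup (Fin 2) (ZMod p), (M ^ 2).1 = -1 → M ^ 2 ≠ 1 := by
    intro M hM h
    rw [h, Matrix.SpecialLinearGroup.coe_one] at hM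
    exact hneg hM.symm
  have hfour : ∀ M : Matrix.SpecialLinearGroup (Fin 2) (ZMod p), (M ^ 2).1 = -1 → M ^ 4 = 1 := by
    intro M hM
    apply Subtype.ext
    rw [show 4 = 2 + 2 from rfl, pow_add, Matrix.SpecialLinearGroup.coe_mul, hM, neg_mul_neg, one_mul,
      Matrix.SpecialLinearGroup.coe_one]
  have hanti : j * i = i⁻¹ * j := by
    apply Subtype.ext
    rw [Matrix.SpecialLinearGroup.coe_mul, Matrix.SpecialLinearGroup.coe_mul, Matrix.SpecialLinearGroup.coe_inv,
      Matrix.adjugate_fin_two]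
    ext u v; fin_cases u <;> fin_cases v <;> simp [i, j]
  have hji : j * i * j⁻¹ = i⁻¹ := by rw [hanti, mul_inv_cancel_right]
  refine ⟨i, j, ?_, hne i hi2, hne j hj2, ?_⟩
  · have hz : ∀ M : Matrix.SpecialLinearGroup (Fin 2) (ZMod p), M ^ 4 = 1 → IsPGroup 2 (Subgroup.zpowers M) := by
      rintro M hM ⟨u, v, rfl⟩
      refine ⟨2, Subtype.ext ?_⟩
      rw [Subgroup.coe_pow, Subgroup.coe_one, ← zpow_natCast, ← zpow_mul, mul_comm, zpow_mul,
        zpow_natCast]
      rw [show (2 : ℕ) ^ 2 = 4 from rfl, hM, one_zpow]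
    refine (hz i (hfour i hi2)).to_sup_of_normal_left' (hz j (hfour j hj2)) (Subgroup.zpowers_le.2 ?_)
    refine (Subgroup.mem_normalizer_iff).2 fun u => ⟨?_, ?_⟩
    · rintro ⟨v, rfl⟩
      exact ⟨-v, by simp only []; rw [← conj_zpow, hji, inv_zpow, zpow_neg]⟩
    · rintro ⟨v, hv⟩
      refine ⟨-v, ?_⟩
      apply (MulAut.conj j).injective
      simp only [MulAut.conj_apply]
      rw [← conj_zpow, hji, inv_zpow, zpow_neg, inv_inv]
      exact hv
  · intro h
    have h' : i⁻¹ * j = i * j := hanti.symm.trans h.symm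
    exact hne i hi2 (by rw [sq, ← inv_eq_iff_mul_eq_one]; exact mul_right_cancel h')

/-- Elements of a section surjecting onto `SL(2,p)` contradict commuting big 2-elements. -/
theorem not_surjective_sl2 {G Q : Type*} [Group G] [Finite G] [Group Q] {p : ℕ} [Fact p.Prime]
    (hp : p ≠ 2) (hQ : BigTwoElementsCommute Q) (π : G →* Q)
    (φ : G →* Matrix.SpecialLinearGroup (Fin 2) (ZMod p)) (hker : π.ker ≤ φ.ker)
    (hφ : Function.Surjective φ) : False := by
  haveI := Fact.mk Nat.prime_two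
  obtain ⟨i, j, hT, hi, hj, hij⟩ := exists_quaternion_pair hp
  obtain ⟨T, hTle⟩ := hT.exists_le_sylow
  obtain ⟨U, hU⟩ := Sylow.mapSurjective_surjective hφ 2 T
  have hmem : ∀ g ∈ Subgroup.zpowers i ⊔ Subgroup.zpowers j, ∃ u ∈ (U : Subgroup G), φ u = g := by
    intro g hg
    have := hTle hg
    rw [← hU] at this
    exact this
  obtain ⟨x, hx, rfl⟩ := hmem i (Subgroup.mem_sup_left (Subgroup.mem_zpowers i))
  obtain ⟨y, hy, rfl⟩ := hmem j (Subgroup.mem_sup_right (Subgroup.mem_zpowers j))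
  have h2 : ∀ u : G, φ u ^ 2 ≠ 1 → π u ^ 2 ≠ 1 := by
    intro u hu h
    rw [← map_pow] at h hu
    exact hu (hker h)
  have h := hQ ((U : Subgroup G).map π) (U.isPGroup'.map π) _ ⟨x, hx, rfl⟩ _ ⟨y, hy, rfl⟩
    (h2 x hi) (h2 y hj)
  have hk : (y * x)⁻¹ * (x * y) ∈ π.ker := by
    rw [MonoidHom.mem_ker, map_mul, map_inv, map_mul, map_mul, h, inv_mul_cancel]
  have := hker hk
  rw [MonoidHom.mem_ker, map_mul, map_inv, inv_mul_eq_one, map_mul, map_mul] at this
  exact hij this.symm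

/-- No element outside the kernel of an irreducible action acts quadratically. -/
theorem mem_centralizer_of_quadratic {G : Type*} [Group G] [Finite G] {p : ℕ} [Fact p.Prime]
    (hp : p ≠ 2) (V H : Subgroup G) (hV : Cfsg.IsElementaryAbelian p V)
    (hHV : H ≤ Subgroup.normalizer (V : Set G))
    (hirr : ∀ U : Subgroup G, U ≤ V → H ≤ Subgroup.normalizer (U : Set G) → U = ⊥ ∨ U = V)
    (hnt : ¬ H ≤ Subgroup.centralizer (V : Set G))
    [((Subgroup.centralizer (V : Set G)).subgroupOf H).Normal]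
    (hQ : BigTwoElementsCommute (↥H ⧸ (Subgroup.centralizer (V : Set G)).subgroupOf H))
    (a : G) (ha : a ∈ H) (hquad : ∀ x ∈ V, ⁅a, ⁅a, x⁆⁆ = 1) :
    a ∈ Subgroup.centralizer (V : Set G) := by
  classical
  set C := (Subgroup.centralizer (V : Set G)).subgroupOf H with hC
  by_contra haC
  have hnV : ∀ h : G, h ∈ H → ∀ x, x ∈ V → h * x * h⁻¹ ∈ V := fun h hh x hx =>
    (Subgroup.mem_normalizer_iff.1 (hHV hh) x).1 hx
  have hcen : ∀ {h : G}, h ∈ Subgroup.centralizer (V : Set G) ↔ ∀ x ∈ V, ⁅h, x⁆ = 1 := by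
    intro h
    rw [Subgroup.mem_centralizer_iff]
    refine forall₂_congr fun x _ => ?_
    rw [commutatorElement_eq_one_iff_mul_comm]
    exact eq_comm
  -- some conjugate generates with `a` a group which is not a `p`-group on `V`
  obtain ⟨g, hgH, hg⟩ : ∃ g ∈ H, ¬ ∀ h ∈ Subgroup.closure ({a, g * a * g⁻¹} : Set G),
      ∃ k : ℕ, ∀ x ∈ V, ⁅h ^ (p ^ k), x⁆ ∈ (⊥ : Subgroup G) := by
    by_contra hall
    push Not at hall
    have hcore := H35.mk_mem_pCore_of_forall (p := p) C (⟨a, ha⟩ : H) (by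
      intro g x hx
      have hx' : (x : G) ∈ Subgroup.closure ({a, (g : G) * a * (g : G)⁻¹} : Set G) := by
        have := Subgroup.mem_map_of_mem H.subtype hx
        rw [MonoidHom.map_closure, Set.image_pair] at this
        exact this
      obtain ⟨k, hk⟩ := hall g g.2 x hx'
      exact ⟨k, Subgroup.mem_subgroupOf.2 (by
        rw [Subgroup.coe_pow]; exact hcen.2 fun v hv => Subgroup.mem_bot.1 (hk v hv))⟩)
    set O := Cfsg.pCore p (↥H ⧸ C) with hO
    have hOp : IsPGroup p O := H72.pCore_isPGroup p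
    haveI hOn : O.Normal := H72.pCore_normal p
    set K := (O.comap (QuotientGroup.mk' C)).map H.subtype with hK
    set U := V ⊓ Subgroup.centralizer (K : Set G) with hU
    have hKH : K ≤ H := Subgroup.map_subtype_le _
    have hHK : ∀ h ∈ H, ∀ k ∈ K, h * k * h⁻¹ ∈ K := by
      rintro h hh _ ⟨k, hk, rfl⟩
      exact ⟨⟨h, hh⟩ * k * ⟨h, hh⟩⁻¹, (hOn.comap _).conj_mem k hk _, rfl⟩
    have hUn : H ≤ Subgroup.normalizer (U : Set G) := by
      intro h hh
      have key : ∀ h' ∈ H, ∀ u ∈ U, h' * u * h'⁻¹ ∈ U := by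
        intro h' hh' u hu
        refine ⟨hnV h' hh' u hu.1, Subgroup.mem_centralizer_iff.2 fun k hk => ?_⟩
        have hk' := Subgroup.mem_centralizer_iff.1 hu.2 _ (hHK _ (inv_mem hh') k hk)
        calc k * (h' * u * h'⁻¹) = h' * ((h'⁻¹ * k * h'⁻¹⁻¹) * u) * h'⁻¹ := by group
          _ = h' * (u * (h'⁻¹ * k * h'⁻¹⁻¹)) * h'⁻¹ := by rw [hk']
          _ = _ := by group
      refine Subgroup.mem_normalizer_iff.2 fun u => ⟨key h hh u, fun hu => ?_⟩
      simpa [mul_assoc] using key h⁻¹ (inv_mem hh) _ hu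
    rcases hirr U inf_le_left hUn with h0 | h0
    · -- the `p`-group `O` fixes a nontrivial vector
      let act : ↥H →* MulAut V :=
        V.normalizerMonoidHom.comp (Subgroup.inclusion hHV)
      have hactker : C ≤ act.ker := by
        intro c hc
        rw [MonoidHom.mem_ker]
        ext v
        have := Subgroup.mem_centralizer_iff.1 (Subgroup.mem_subgroupOf.1 hc) v v.2
        show (c : G) * v * (c : G)⁻¹ = v
        rw [← this, mul_inv_cancel_right]
      let actQ := (QuotientGroup.lift C act hactker).comp O.subtype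
      letI : MulAction O V := MulAction.compHom V actQ
      have hVne : Nontrivial V := by
        rw [Subgroup.nontrivial_iff_ne_bot]
        intro hVb
        apply hnt
        rw [hVb]
        intro h _
        exact Subgroup.mem_centralizer_iff.2 fun x hx => by
          rw [Subgroup.mem_bot.1 hx, one_mul, mul_one]
      have hVp : IsPGroup p V := fun v => ⟨1, by
        rw [pow_one]; exact Subtype.ext (hV.2 v v.2)⟩
      obtain ⟨n, hn, hn'⟩ := (IsPGroup.nontrivial_iff_card hVp).1 hVne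
      obtain ⟨v, hv, hv1⟩ := hOp.exists_fixed_point_of_prime_dvd_card_of_fixed_point V
        (hn' ▸ dvd_pow_self p hn.ne') (a := (1 : V))
        (MulAction.mem_fixedPoints.2 fun o => map_one (actQ o))
      refine hv1 (Subtype.ext ?_)
      have : (v : G) ∈ U := by
        refine ⟨v.2, Subgroup.mem_centralizer_iff.2 ?_⟩
        rintro _ ⟨k, hk, rfl⟩
        have h1 : act k v = v := MulAction.mem_fixedPoints.1 hv ⟨_, hk⟩
        have h2 := congrArg Subtype.val h1
        change (k : G) * v * (k : G)⁻¹ = v at h2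
        exact mul_inv_eq_iff_eq_mul.1 h2
      rw [h0, Subgroup.mem_bot] at this
      rw [this]; rfl
    · refine haC (Subgroup.mem_centralizer_iff.2 fun x hx => ?_)
      exact (Subgroup.mem_centralizer_iff.1 ((h0.symm.le.trans inf_le_right) hx) a
        ⟨⟨a, ha⟩, hcore, rfl⟩).symm
  have haV := hHV ha
  have hgV := hHV (mul_mem (mul_mem hgH ha) (inv_mem hgH))
  have hnb : ∀ y : G, y ∈ Subgroup.normalizer ((⊥ : Subgroup G) : Set G) := fun y => by
    rw [Subgroup.mem_normalizer_iff]; intro x; simp [Subgroup.mem_bot, conj_eq_one_iff]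
  obtain ⟨H', W₁, φ, ψ, hH', hW₁, hφ, -, hsurj, heq⟩ := H35.exists_natural_section hp
    (bot_le : ⊥ ≤ V) haV (hnb a) hgV (hnb _)
    (fun x hx => Subgroup.mem_bot.2 (hV.2 x hx))
    (fun x hx y hy => Subgroup.mem_bot.2 (commutatorElement_eq_one_iff_mul_comm.2
      (congrArg Subtype.val (hV.1.is_comm.comm ⟨x, hx⟩ ⟨y, hy⟩))))
    (fun x hx => Subgroup.mem_bot.2 (hquad x hx))
    (fun x hx => Subgroup.mem_bot.2 (by
      have hx' : g⁻¹ * x * g ∈ V := by simpa using hnV g⁻¹ (inv_mem hgH) x hx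
      have : ⁅g * a * g⁻¹, ⁅g * a * g⁻¹, x⁆⁆ = g * ⁅a, ⁅a, g⁻¹ * x * g⁆⁆ * g⁻¹ := by
        simp only [commutatorElement_def]; group
      rw [this, hquad _ hx', mul_one, mul_inv_cancel]))
    hg
  have hH'H : H' ≤ H := hH'.trans ((Subgroup.closure_le _).2 (by
    rintro z (rfl | rfl)
    exacts [ha, mul_mem (mul_mem hgH ha) (inv_mem hgH)]))
  refine not_surjective_sl2 hp hQ ((QuotientGroup.mk' C).comp (Subgroup.inclusion hH'H)) φ ?_ hφ
  intro h hh
  have hhC : (h : G) ∈ Subgroup.centralizer (V : Set G) :=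
    Subgroup.mem_subgroupOf.1 ((QuotientGroup.eq_one_iff (Subgroup.inclusion hH'H h)).1 hh)
  rw [MonoidHom.mem_ker]
  apply Subtype.ext
  apply Matrix.toLin'.injective
  refine LinearMap.ext fun d => ?_
  obtain ⟨x, hx, rfl⟩ := hsurj d
  have hfix : (h : G) * x * (h : G)⁻¹ = x := by
    rw [← Subgroup.mem_centralizer_iff.1 hhC x (hW₁ hx), mul_inv_cancel_right]
  rw [Matrix.toLin'_apply, Matrix.toLin'_apply, ← (heq h x hx).2, hfix,
    Matrix.SpecialLinearGroup.coe_one, Matrix.one_mulVec]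

end Cfsg.Agent.H55
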